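import Cfsg.Agent.H495.HT.Rho
import Mathlib.LinearAlgebra.Projectivization.Action

/-!
# Invariant lines and fixed points on the projective line (helper495, S4933)
-/

set_option autoImplicit false

open scoped LinearAlgebra.Projectivization MatrixGroups
open Cfsg

namespace Cfsg.Agent.H495.HT

universe u

variable {F : Type u} [Field F]

theorem submodule_smul (g : GL (Fin 2) F) (x : ℙ F (Fin 2 → F)) :
    (g • x).submodule = x.submodule.map (Matrix.toLin' (g : Matrix (Fin 2) (Fin 2) F)) := by
  induction x using Projectivization.ind with
  | _ v hv =>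
    rw [Projectivization.smul_mk, Projectivization.submodule_mk, Projectivization.submodule_mk,
      Submodule.map_span, Set.image_singleton]
    rfl

theorem fixed_iff (g : GL (Fin 2) F) (x : ℙ F (Fin 2 → F)) :
    g • x = x ↔ x.submodule ≤ x.submodule.comap (Matrix.toLin' (g : Matrix (Fin 2) (Fin 2) F)) := by
  rw [← Submodule.map_le_iff_le_comap, ← submodule_smul]
  constructor
  · intro h
    rw [h]
  · intro h
    apply Projectivization.submodule_injective
    apply Submodule.eq_of_le_of_finrank_eq h
    rw [Projectivization.finrank_submodule, Projectivization.finrank_submodule]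

/-- the number of invariant lines is the number of fixed points on the projective line -/
theorem ln_eq (g : GL (Fin 2) F) : ln g = Nat.card (MulAction.fixedBy (ℙ F (Fin 2 → F)) g) := by
  rw [ln, lines]
  let e : {W : Submodule F (Fin 2 → F) // Module.finrank F W = 1 ∧ W ≤ W.comap (Matrix.toLin' (g : Matrix (Fin 2) (Fin 2) F))} ≃
      MulAction.fixedBy (ℙ F (Fin 2 → F)) g :=
    { toFun := fun W => ⟨Projectivization.mk'' W.1 W.2.1, by
        rw [MulAction.mem_fixedBy, fixed_iff, Projectivization.submodule_mk'']
        exact W.2.2⟩
      invFun := fun x => ⟨x.1.submodule, x.1.finrank_submodule, (fixed_iff g x.1).1 x.2⟩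
      left_inv := fun W => Subtype.ext (Projectivization.submodule_mk'' _ _)
      right_inv := fun x => Subtype.ext (Projectivization.mk''_submodule _) }
  exact Nat.card_congr e

theorem mk_fixedBy (g : GL (Fin 2) F) :
    MulAction.fixedBy (ℙ F (Fin 2 → F)) (Matrix.ProjGenLinGroup.mk g : PGL(Fin 2, F)) =
      MulAction.fixedBy (ℙ F (Fin 2 → F)) g := by
  ext x
  rfl

end Cfsg.Agent.H495.HT
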