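import Cfsg.Agent.H495.HT.Ln
import Cfsg.Agent.H495.HT.B0
import Cfsg.Agent.H636.Gow.CuspSL

/-!
# The cuspidal character `ρ` of `GL₂(q)`: the form needed for `³D₄(q)` (helper495, S4933)
-/

set_option autoImplicit false

open Cfsg
open scoped LinearAlgebra.Projectivization MatrixGroups

namespace Cfsg.Agent.H495.HT

open Cfsg.Agent.Characters Cfsg.Agent.OddOrderCharacters.Clifford

universe u

section

variable {F : Type u} [Field F]

theorem ln_one [Finite F] : ln (1 : GL (Fin 2) F) = Nat.card F + 1 := by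
  rw [ln_eq]
  have h : MulAction.fixedBy (ℙ F (Fin 2 → F)) (1 : GL (Fin 2) F) = Set.univ := by
    ext x
    simp
  rw [h, Nat.card_coe_set_eq, Set.ncard_univ]
  exact Projectivization.card_of_finrank_two F (Fin 2 → F) (Module.finrank_fin_fun F)

theorem ln_unip {g : GL (Fin 2) F} {t : F} (ht : t ≠ 0) (hg : (g : Matrix (Fin 2) (Fin 2) F) = !![1, t; 0, 1]) :
    ln g = 1 := by
  classical
  rw [ln, lines, Nat.card_eq_one_iff_unique]
  have hap : ∀ v : Fin 2 → F, Matrix.toLin' (g : Matrix (Fin 2) (Fin 2) F) v = ![v 0 + t * v 1, v 1] := by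
    intro v
    rw [hg, Matrix.toLin'_apply]
    ext i
    fin_cases i <;> simp [Matrix.mulVec, dotProduct, Fin.sum_univ_two]
  have key : ∀ W : Submodule F (Fin 2 → F), Module.finrank F W = 1 →
      W ≤ W.comap (Matrix.toLin' (g : Matrix (Fin 2) (Fin 2) F)) → W = Submodule.span F {![1, 0]} := by
    intro W hW hi
    obtain ⟨v, hv, hv'⟩ := finrank_eq_one_iff'.1 hW
    obtain ⟨c, hc⟩ := hv' ⟨Matrix.toLin' (g : Matrix (Fin 2) (Fin 2) F) v, hi v.2⟩
    have hc' : c • (v : Fin 2 → F) = ![(v : Fin 2 → F) 0 + t * (v : Fin 2 → F) 1, (v : Fin 2 → F) 1] := by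
      rw [← hap]
      exact congrArg Subtype.val hc
    have h0 : c * (v : Fin 2 → F) 0 = (v : Fin 2 → F) 0 + t * (v : Fin 2 → F) 1 := congrFun hc' 0
    have h1 : c * (v : Fin 2 → F) 1 = (v : Fin 2 → F) 1 := congrFun hc' 1
    have hb : (v : Fin 2 → F) 1 = 0 := by
      by_contra hb
      have hc1 : c = 1 := by
        have : (c - 1) * (v : Fin 2 → F) 1 = 0 := by rw [sub_mul, h1, one_mul, sub_self]
        rcases mul_eq_zero.1 this with h | h
        · exact sub_eq_zero.1 h
        · exact absurd h hb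
      rw [hc1, one_mul] at h0
      have : t * (v : Fin 2 → F) 1 = 0 := by linear_combination -h0
      rcases mul_eq_zero.1 this with h | h
      · exact ht h
      · exact hb h
    have hle : W ≤ Submodule.span F {![1, 0]} := by
      intro w hw
      obtain ⟨d, hd⟩ := hv' ⟨w, hw⟩
      have hd' : d • (v : Fin 2 → F) = w := congrArg Subtype.val hd
      rw [Submodule.mem_span_singleton]
      refine ⟨d * (v : Fin 2 → F) 0, ?_⟩
      rw [← hd']
      ext i
      fin_cases i
      · simp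
      · simp [hb]
    apply Submodule.eq_of_le_of_finrank_eq hle
    rw [hW, finrank_span_singleton]
    intro h
    have := congrFun h 0
    simp at this
  refine ⟨⟨fun W W' => Subtype.ext ((key W.1 W.2.1 W.2.2).trans (key W'.1 W'.2.1 W'.2.2).symm)⟩, ?_⟩
  refine ⟨⟨Submodule.span F {![1, 0]}, ?_, ?_⟩⟩
  · rw [finrank_span_singleton]
    intro h
    have := congrFun h 0
    simp at this
  · rw [Submodule.span_le, Set.singleton_subset_iff]
    show Matrix.toLin' (g : Matrix (Fin 2) (Fin 2) F) ![1, 0] ∈ Submodule.span F {![1, 0]}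
    rw [hap]
    have : (![(![1, 0] : Fin 2 → F) 0 + t * (![1, 0] : Fin 2 → F) 1, (![1, 0] : Fin 2 → F) 1] : Fin 2 → F) = ![1, 0] := by
      ext i
      fin_cases i <;> simp
    rw [this]
    exact Submodule.mem_span_singleton_self _

/-- the unipotent subgroup -/
def uhom (F : Type u) [Field F] : Multiplicative F →* GL (Fin 2) F where
  toFun t := ⟨!![1, t.toAdd; 0, 1], !![1, -t.toAdd; 0, 1], by
    ext i j
    fin_cases i <;> fin_cases j <;> simp [Matrix.mul_apply, Fin.sum_univ_two], by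
    ext i j
    fin_cases i <;> fin_cases j <;> simp [Matrix.mul_apply, Fin.sum_univ_two]⟩
  map_one' := by
    apply Units.ext
    ext i j
    fin_cases i <;> fin_cases j <;> simp
  map_mul' s t := by
    apply Units.ext
    ext i j
    fin_cases i <;> fin_cases j <;> simp [Matrix.mul_apply, Fin.sum_univ_two, add_comm]

end

/-- **The form [C] of helper912.** -/
theorem exists_rhoC (F : Type u) [Field F] [Fintype F] (hq : Nat.card F % 3 = 2) {M : Ideal AlgInt}
    (hM : IsPModular 3 M) :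
    ∃ ψ : IrrCharacter (GL (Fin 2) F), ψ ∈ principalBlock M (GL (Fin 2) F) ∧
      (ψ : GL (Fin 2) F → ℂ) 1 = (Nat.card F : ℂ) - 1 ∧
      (∀ (z : Fˣ) (g : GL (Fin 2) F), (ψ : GL (Fin 2) F → ℂ) (Matrix.GeneralLinearGroup.scalar (Fin 2) z * g) =
        (ψ : GL (Fin 2) F → ℂ) g) ∧
      (∀ g : GL (Fin 2) F, ∑ t : F, (ψ : GL (Fin 2) F → ℂ) (uhom F (Multiplicative.ofAdd t) * g) = 0) ∧
      (∀ g : GL (Fin 2) F, ¬ 3 ∣ orderOf g → (ψ : GL (Fin 2) F → ℂ) g = (ln g : ℂ) - 2) ∧
      (∀ g : GL (Fin 2) F, 0 < ln g → (ψ : GL (Fin 2) F → ℂ) g = (ln g : ℂ) - 2) := by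
  classical
  obtain ⟨ρ, h1, hs, hr, hp, -⟩ := exists_rho F hq
  have hcard : Nat.card (ℙ F (Fin 2 → F)) = Nat.card F + 1 :=
    Projectivization.card_of_finrank_two F (Fin 2 → F) (Module.finrank_fin_fun F)
  have : Fact (Nat.Prime 3) := ⟨Nat.prime_three⟩
  have hne : Nonempty (ℙ F (Fin 2 → F)) := (Nat.card_pos_iff.1 (by omega)).1
  have hfin : Finite (ℙ F (Fin 2 → F)) := (Nat.card_pos_iff.1 (by omega)).2
  have htr : MulAction.IsPretransitive (GL (Fin 2) F) (ℙ F (Fin 2 → F)) := by
    refine ⟨fun x y => ?_⟩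
    obtain ⟨g, hg⟩ := MulAction.exists_smul_eq (Matrix.SpecialLinearGroup (Fin 2) F) x y
    exact ⟨(g : GL (Fin 2) F), hg⟩
  refine ⟨ρ, ?_, h1, hs, ?_, hr, hp⟩
  · refine mem_principal (p := 3) (Ω := ℙ F (Fin 2 → F)) (by norm_num) (by omega) hM ρ fun g hg => ?_
    rw [hr g hg, ln_eq]
  · have h0 : ∑ a : Multiplicative F, (ρ : GL (Fin 2) F → ℂ) (uhom F a) = 0 := by
      have h2 : ∀ a : Multiplicative F, (ρ : GL (Fin 2) F → ℂ) (uhom F a) =
          (if a = 1 then (Nat.card F : ℂ) else 0) - 1 := by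
        intro a
        by_cases ha : a = 1
        · rw [if_pos ha, ha, map_one, h1]
        · have h3 : ln (uhom F a) = 1 := ln_unip (t := a.toAdd) ha rfl
          rw [if_neg ha, hp _ (by omega), h3]
          norm_num
      rw [Finset.sum_congr rfl fun a _ => h2 a, Finset.sum_sub_distrib, Finset.sum_ite_eq' Finset.univ 1,
        if_pos (Finset.mem_univ _), Finset.sum_const, Finset.card_univ, nsmul_eq_mul, mul_one,
        ← Nat.card_eq_fintype_card (α := Multiplicative F)]
      have h5 : Nat.card (Multiplicative F) = Nat.card F := rfl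
      rw [h5]
      exact sub_self (Nat.card F : ℂ)
    intro g
    have h3 := Cfsg.Agent.H636.Gow.CuspSL.sum_mul_eq_zero (Core.isIrr_isCharacter ρ.2) (uhom F) h0 g
    rw [← h3]
    refine Fintype.sum_equiv Multiplicative.ofAdd _ _ fun t => ?_
    have h4 := Blocks.Basic.irr_conj ρ.2 (g * uhom F (Multiplicative.ofAdd t)) g⁻¹
    rw [← h4]
    group

end Cfsg.Agent.H495.HT
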